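import Mathlib
import Cfsg.Agent.Lib.Helper60.NseM11.Defs
import Cfsg.Agent.Lib.Helper91.M11Count

set_option autoImplicit false

/-!
# S3592 package [SIMP]: order `7920` and the `M11` numbers of elements of each order force
simplicity
-/

universe u

namespace Cfsg.Agent.Lib.Helper62.NseM11

open Cfsg.Agent.Lib.Helper60.NseM11

variable {G : Type u} [Group G]

/-- Sylow `p`-subgroups have order `p` when `p` divides the group order exactly once -/
theorem sylow_card_eq_prime [Finite G] {p : ℕ} [Fact p.Prime] (hp : p ∣ Nat.card G)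
    (hp2 : ¬ p ^ 2 ∣ Nat.card G) (P : Sylow p G) : Nat.card (P : Subgroup G) = p := by
  obtain ⟨n, hn⟩ := IsPGroup.iff_card.mp P.isPGroup'
  have h1 : p ∣ Nat.card (P : Subgroup G) := P.dvd_card_of_dvd_card hp
  have h2 : Nat.card (P : Subgroup G) ∣ Nat.card G := Subgroup.card_subgroup_dvd_card _
  rw [hn] at h1 h2 ⊢
  have hn1 : n ≠ 0 := by
    rintro rfl
    rw [pow_zero] at h1
    exact (Fact.out : p.Prime).one_lt.ne' (Nat.dvd_one.mp h1)
  have hn2 : n < 2 := by
    by_contra hcon
    push Not at hcon
    exact hp2 ((pow_dvd_pow p hcon).trans h2)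
  have hn3 : n = 1 := by omega
  rw [hn3, pow_one]

/-- an element with a power in a normal subgroup, the exponent prime to the index, lies in it -/
theorem mem_of_pow_mem_of_coprime (N : Subgroup G) [N.Normal] (g : G) (k : ℕ) (hk : g ^ k ∈ N)
    (hc : Nat.Coprime k N.index) : g ∈ N := by
  have h1 : g ^ N.index ∈ N := Subgroup.pow_index_mem N g
  have h2 : g ^ (Nat.gcd k N.index) ∈ N := by
    rw [← zpow_natCast, Nat.gcd_eq_gcd_ab, zpow_add, zpow_mul, zpow_mul]
    exact N.mul_mem (N.zpow_mem (by rw [zpow_natCast]; exact hk) _)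
      (N.zpow_mem (by rw [zpow_natCast]; exact h1) _)
  have h3 : Nat.gcd k N.index = 1 := hc
  rw [h3, pow_one] at h2
  exact h2

/-- if a subgroup contains all elements of order `p`, it has as many of them as the group -/
theorem card_orderOf_subgroup (N : Subgroup G) (p : ℕ) (h : ∀ g : G, orderOf g = p → g ∈ N) :
    Nat.card {y : ↥N // orderOf y = p} = Nat.card {g : G // orderOf g = p} := by
  apply Nat.card_congr
  refine Equiv.ofBijective
    (fun y => (⟨y.1.1, by rw [Subgroup.orderOf_coe]; exact y.2⟩ : {g : G // orderOf g = p}))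
    ⟨?_, ?_⟩
  · intro y y' hyy'
    apply Subtype.ext
    apply Subtype.ext
    exact congrArg (fun z : {g : G // orderOf g = p} => z.1) hyy'
  · intro g
    refine ⟨⟨⟨g.1, h g.1 g.2⟩, ?_⟩, rfl⟩
    rw [← Subgroup.orderOf_coe]
    exact g.2

/-- a normal subgroup of order divisible by `p` (where `p²` does not divide `|G|`) contains all
elements of order `p`, and its number of Sylow `p`-subgroups divides its order -/
theorem sylow_count_normal [Finite G] {p : ℕ} [Fact p.Prime] (N : Subgroup G) [N.Normal]
    (hpN : p ∣ Nat.card N) (hp2 : ¬ p ^ 2 ∣ Nat.card G) :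
    ∃ k : ℕ, k ∣ Nat.card N ∧ Nat.card {g : G // orderOf g = p} = k * (p - 1) ∧
      ∀ g : G, orderOf g = p → g ∈ N := by
  have hp : p.Prime := Fact.out
  have hidx : ¬ p ∣ N.index := by
    intro h
    apply hp2
    rw [← Subgroup.card_mul_index N, pow_two]
    exact mul_dvd_mul hpN h
  have hmem : ∀ g : G, orderOf g = p → g ∈ N := by
    intro g hg
    apply mem_of_pow_mem_of_coprime N g p
    · rw [← hg, pow_orderOf_eq_one]
      exact N.one_mem
    · exact (Nat.Prime.coprime_iff_not_dvd hp).mpr hidx
  have hN2 : ¬ p ^ 2 ∣ Nat.card N := fun h => hp2 (h.trans (Subgroup.card_subgroup_dvd_card N))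
  have hS : ∀ P : Sylow p ↥N, Nat.card (P : Subgroup ↥N) = p := sylow_card_eq_prime hpN hN2
  have hc := Cfsg.Agent.Lib.Helper91.M11.card_orderOf_eq_prime hS
  rw [card_orderOf_subgroup N p hmem] at hc
  obtain ⟨P⟩ : Nonempty (Sylow p ↥N) := inferInstance
  exact ⟨Nat.card (Sylow p ↥N), (Sylow.card_dvd_index P).trans (Subgroup.index_dvd_card _), hc,
    hmem⟩

theorem pkgSimple (hF : PkgFrob3.{u}) (hC : PkgCent.{u}) : PkgSimple.{u} := by
  intro G _ _ hG hL
  classical
  haveI : Fact (Nat.Prime 11) := ⟨by norm_num⟩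
  haveI : Fact (Nat.Prime 5) := ⟨by norm_num⟩
  haveI : Fact (Nat.Prime 3) := ⟨by norm_num⟩
  have h11G : 11 ∣ Nat.card G := by rw [hG]; norm_num
  have h5G : 5 ∣ Nat.card G := by rw [hG]; norm_num
  have h3G : 3 ∣ Nat.card G := by rw [hG]; norm_num
  have h121 : ¬ 11 ^ 2 ∣ Nat.card G := by rw [hG]; norm_num
  have h25 : ¬ 5 ^ 2 ∣ Nat.card G := by rw [hG]; norm_num
  -- elements of order 11
  have hc11 : Nat.card {g : G // orderOf g = 11} = 1440 ∧ Nat.card (Sylow 11 G) = 144 := by
    have h1 := Cfsg.Agent.Lib.Helper91.M11.card_orderOf_eq_prime (G := G) (p := 11)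
      (sylow_card_eq_prime h11G h121)
    have h2 : Nat.card (Sylow 11 G) % 11 = 1 := card_sylow_modEq_one 11 G
    have hpos : 0 < Nat.card {g : G // orderOf g = 11} := by
      obtain ⟨x, hx⟩ := exists_prime_orderOf_dvd_card' 11 h11G
      exact Nat.card_pos_iff.mpr ⟨⟨⟨x, hx⟩⟩, inferInstance⟩
    have h3 := hL 11 hpos
    simp only [Set.mem_insert_iff, Set.mem_singleton_iff] at h3
    norm_num at h1
    omega
  -- elements of order 5
  have hc5 : Nat.card {g : G // orderOf g = 5} = 1584 := by
    have h1 := Cfsg.Agent.Lib.Helper91.M11.card_orderOf_eq_prime (G := G) (p := 5)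
      (sylow_card_eq_prime h5G h25)
    have h2 : Nat.card (Sylow 5 G) % 5 = 1 := card_sylow_modEq_one 5 G
    have hpos : 0 < Nat.card {g : G // orderOf g = 5} := by
      obtain ⟨x, hx⟩ := exists_prime_orderOf_dvd_card' 5 h5G
      exact Nat.card_pos_iff.mpr ⟨⟨⟨x, hx⟩⟩, inferInstance⟩
    have h3 := hL 5 hpos
    simp only [Set.mem_insert_iff, Set.mem_singleton_iff] at h3
    norm_num at h1
    omega
  -- elements of order 3
  have hc3 : Nat.card {g : G // orderOf g = 3} = 440 := by
    have h1 := hF h3G
    have hpos : 0 < Nat.card {g : G // orderOf g = 3} := by omega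
    have h3 := hL 3 hpos
    simp only [Set.mem_insert_iff, Set.mem_singleton_iff] at h3
    omega
  haveI : Nontrivial G := by
    rw [← Finite.one_lt_card_iff_nontrivial, hG]
    norm_num
  -- a normal subgroup of order divisible by 11 is everything
  have hA : ∀ N : Subgroup G, N.Normal → 11 ∣ Nat.card N → N = ⊤ := by
    intro N hN h11N
    haveI := hN
    obtain ⟨k, hk1, hk2, hmem11⟩ := sylow_count_normal (p := 11) N h11N h121
    rw [hc11.1] at hk2
    have hk : k = 144 := by
      norm_num at hk2
      omega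
    rw [hk] at hk1
    have h1584 : 144 * 11 ∣ Nat.card N :=
      Nat.Coprime.mul_dvd_of_dvd_of_dvd (by norm_num) hk1 h11N
    obtain ⟨t, ht⟩ := h1584
    have hNcard := Subgroup.card_mul_index N
    rw [hG, ht] at hNcard
    have ht5 : t * N.index = 5 := by
      have h2 : 144 * 11 * (t * N.index) = 144 * 11 * 5 := by
        rw [← mul_assoc]
        exact hNcard
      exact Nat.eq_of_mul_eq_mul_left (by norm_num) h2
    have htd : t ∣ 5 := ⟨N.index, ht5.symm⟩
    rcases (Nat.dvd_prime (by norm_num : Nat.Prime 5)).mp htd with ht1 | ht1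
    · -- index 5: impossible
      exfalso
      rw [ht1, one_mul] at ht5
      rw [ht1] at ht
      have hmem3 : ∀ g : G, orderOf g = 3 → g ∈ N := by
        intro g hg
        apply mem_of_pow_mem_of_coprime N g 3
        · rw [← hg, pow_orderOf_eq_one]
          exact N.one_mem
        · rw [ht5]
          norm_num
      have hinj : Nat.card ({g : G // orderOf g = 3} ⊕ {g : G // orderOf g = 11}) ≤ Nat.card N := by
        apply Nat.card_le_card_of_injective
          (fun s => (Sum.elim (fun g => (⟨g.1, hmem3 g.1 g.2⟩ : ↥N))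
            (fun g => (⟨g.1, hmem11 g.1 g.2⟩ : ↥N)) s))
        rintro (a | a) (b | b) hab
        · have h2 : a.1 = b.1 := congrArg (fun z : ↥N => (z : G)) hab
          rw [Subtype.ext h2]
        · exfalso
          have h2 : a.1 = b.1 := congrArg (fun z : ↥N => (z : G)) hab
          have h3 := a.2
          rw [h2, b.2] at h3
          omega
        · exfalso
          have h2 : a.1 = b.1 := congrArg (fun z : ↥N => (z : G)) hab
          have h3 := a.2
          rw [h2, b.2] at h3
          omega
        · have h2 : a.1 = b.1 := congrArg (fun z : ↥N => (z : G)) hab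
          rw [Subtype.ext h2]
      rw [Nat.card_sum, hc3, hc11.1, ht] at hinj
      omega
    · -- index 1
      apply Subgroup.eq_top_of_card_eq
      rw [ht, ht1, hG]
  refine { exists_pair_ne := exists_pair_ne G, eq_bot_or_eq_top_of_normal := fun N hN => ?_ }
  by_cases hbot : N = ⊥
  · exact Or.inl hbot
  right
  haveI := hN
  by_cases h11N : 11 ∣ Nat.card N
  · exact hA N hN h11N
  by_cases h5N : 5 ∣ Nat.card N
  · apply hA N hN
    obtain ⟨k, hk1, hk2, -⟩ := sylow_count_normal (p := 5) N h5N h25
    rw [hc5] at hk2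
    have hk : k = 396 := by
      norm_num at hk2
      omega
    rw [hk] at hk1
    exact Dvd.dvd.trans (by norm_num) hk1
  exfalso
  have hdvd : Nat.card N ∣ 144 * 55 := by
    have h1 := Subgroup.card_subgroup_dvd_card N
    rw [hG] at h1
    exact h1
  have hcop : Nat.Coprime (Nat.card N) (5 * 11) := by
    apply Nat.Coprime.mul_right
    · exact ((Nat.Prime.coprime_iff_not_dvd (by norm_num)).mpr h5N).symm
    · exact ((Nat.Prime.coprime_iff_not_dvd (by norm_num)).mpr h11N).symm
  have h144 : Nat.card N ∣ 144 := Nat.Coprime.dvd_of_dvd_mul_right hcop hdvd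
  obtain ⟨x, hx⟩ := exists_prime_orderOf_dvd_card' 11 h11G
  have hcomm := hC N hN h144 x hx
  have hpg : IsPGroup 11 (Subgroup.zpowers x) :=
    IsPGroup.of_card (n := 1) (by rw [Nat.card_zpowers, hx, pow_one])
  obtain ⟨P, hP⟩ := hpg.exists_le_sylow
  have hPcard := sylow_card_eq_prime h11G h121 P
  have hPeq : Subgroup.zpowers x = (P : Subgroup G) :=
    Subgroup.eq_of_le_of_card_ge hP (by rw [hPcard, Nat.card_zpowers, hx])
  have hNle : N ≤ Subgroup.normalizer ((P : Subgroup G) : Set G) := by
    intro n hn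
    have hny : ∀ y ∈ (P : Subgroup G), n * y * n⁻¹ = y := by
      intro y hy
      rw [← hPeq] at hy
      obtain ⟨k, rfl⟩ := Subgroup.mem_zpowers_iff.mp hy
      have h1 : Commute n x := (hcomm n hn).symm
      have h2 : Commute n (x ^ k) := h1.zpow_right k
      rw [h2.eq, mul_inv_cancel_right]
    rw [Subgroup.mem_normalizer_iff]
    intro y
    constructor
    · intro hy
      rw [hny y hy]
      exact hy
    · intro hy
      have hz := hny _ hy
      have h3 : n * y * n⁻¹ = y := mul_left_cancel (mul_right_cancel hz)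
      rw [h3] at hy
      exact hy
  have hnorm : Nat.card (Subgroup.normalizer ((P : Subgroup G) : Set G)) = 55 := by
    have h1 := Subgroup.card_mul_index (Subgroup.normalizer ((P : Subgroup G) : Set G))
    have h0 : Nat.card (Sylow 11 G)
        = (Subgroup.normalizer ((P : Subgroup G) : Set G)).index :=
      Sylow.card_eq_index_normalizer P
    rw [← h0, hc11.2, hG] at h1
    omega
  have h55 : Nat.card N ∣ 55 := by
    rw [← hnorm]
    exact Subgroup.card_dvd_of_le hNle
  have h1 : Nat.card N ∣ Nat.gcd 144 55 := Nat.dvd_gcd h144 h55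
  have h2 : Nat.gcd 144 55 = 1 := by norm_num
  rw [h2] at h1
  exact hbot (Subgroup.card_eq_one.mp (Nat.dvd_one.mp h1))

end Cfsg.Agent.Lib.Helper62.NseM11
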